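import Cfsg.Agent.Dade.Lift
import Cfsg.Agent.Block.FongReynolds
import Cfsg.Agent.Block.Transport
import Cfsg.Agent.Char.Special
import Cfsg.Agent.Char.PermLemma
import Cfsg.Prelude.Def_BlockLocal
import Mathlib.LinearAlgebra.Matrix.Rank

/-!
# Perfect isometries with positive signs
-/

set_option autoImplicit false

open scoped ComplexConjugate
open Subgroup Cfsg.Lib.Char Cfsg.Lib.Block

namespace Cfsg.Lib.Dade

variable {G H : Type*} [Group G] [Group H] {p : ℕ} {M : Ideal AlgInt}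
  {B : Set (IrrCharacter G)} {c : Set (IrrCharacter H)}

/-- There is a perfect isometry with positive signs between `B` and `c`. -/
def PI (p : ℕ) (M : Ideal AlgInt) (B : Set (IrrCharacter G)) (c : Set (IrrCharacter H)) : Prop :=
  ∃ (n : ℕ) (a : Fin n → IrrCharacter G) (b : Fin n → IrrCharacter H), Function.Injective a ∧
    Function.Injective b ∧ Set.range a = B ∧ Set.range b = c ∧ ∀ x y,
      vM M ((∑ i, (a i : G → ℂ) x * (b i : H → ℂ) y) /
        Nat.card (centralizer ({x} : Set G))) ≤ 1 ∧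
      vM M ((∑ i, (a i : G → ℂ) x * (b i : H → ℂ) y) /
        Nat.card (centralizer ({y} : Set H))) ≤ 1 ∧
      ((p ∣ orderOf x ↔ p ∣ orderOf y) ∨ ∑ i, (a i : G → ℂ) x * (b i : H → ℂ) y = 0)

theorem PI.symm (h : PI p M B c) : PI p M c B := by
  obtain ⟨n, a, b, ha, hb, hB, hc, h⟩ := h
  refine ⟨n, b, a, hb, ha, hc, hB, fun y x => ?_⟩
  simp only [mul_comm ((b _ : H → ℂ) y)]
  exact ⟨(h x y).2.1, (h x y).1, (h x y).2.2.imp_left Iff.symm⟩

theorem PI.trB {G' : Type*} [Group G'] (h : PI p M B c) (e : G' ≃* G) : PI p M (trB e B) c := by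
  obtain ⟨n, a, b, ha, hb, hB, hc, h⟩ := h
  refine ⟨n, irrComap e ∘ a, b, (irrComap e).injective.comp ha, hb,
    by rw [Set.range_comp, hB, trB_eq_image], hc, fun x y => ?_⟩
  have := h (e x) y
  rwa [card_centralizer_equiv, MulEquiv.orderOf_eq] at this

theorem vM_indFun_div_le_one [Fintype G] (T : Subgroup G) {φ : T → ℂ} (hφ : IsClassFunction T φ)
    (h : ∀ t, vM M (φ t / Nat.card (centralizer ({t} : Set T))) ≤ 1) (x : G) :
    vM M (indFun T φ x / Nat.card (centralizer ({x} : Set G))) ≤ 1 := by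
  classical
  have := Fintype.ofFinite (ConjClasses T)
  let F : ConjClasses T → ℂ := fun C =>
    if IsConj x (C.out : T) then φ C.out / Nat.card (centralizer ({C.out} : Set T)) else 0
  have h1 : ∀ [DecidablePred fun t : T => IsConj x (t : G)],
      ∑ t ∈ Finset.univ.filter (fun t : T => IsConj x (t : G)), φ t =
      ∑ t : T, (Nat.card (centralizer ({t} : Set T)) : ℂ) * F (ConjClasses.mk t) := by
    intro _
    rw [Finset.sum_filter]
    refine Finset.sum_congr rfl fun t _ => ?_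
    have h2 : IsConj t (ConjClasses.mk t).out :=
      ConjClasses.mk_eq_mk_iff_isConj.1 (Quotient.out_eq _).symm
    obtain ⟨u, hu⟩ := isConj_iff.1 h2
    have h3 : IsConj (t : G) ((ConjClasses.mk t).out : T) := T.subtype.map_isConj h2
    have h4 := card_centralizer_equiv (MulAut.conj u) t
    simp only [F]
    rw [← hφ.eq_of_isConj h2, ← hu, show u * t * u⁻¹ = MulAut.conj u t from rfl, h4,
      show MulAut.conj u t = u * t * u⁻¹ from rfl, hu]
    by_cases h5 : IsConj x (t : G)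
    · rw [if_pos h5, if_pos (h5.trans h3), mul_div_cancel₀ _ (Nat.cast_ne_zero.2 Nat.card_pos.ne')]
    · rw [if_neg h5, if_neg fun h6 => h5 (h6.trans h3.symm), mul_zero]
  have h2 : (Nat.card (centralizer ({x} : Set G)) : ℂ) ≠ 0 := Nat.cast_ne_zero.2 Nat.card_pos.ne'
  have h3 : (Nat.card T : ℂ) ≠ 0 := Nat.cast_ne_zero.2 Nat.card_pos.ne'
  rw [indFun_eq_sum_class, @h1 fun _ => Classical.propDecidable _, sum_card_centralizer_mul, show ∀ z : ℂ,
    (Nat.card (centralizer ({x} : Set G)) : ℂ) / Nat.card T * (Nat.card T * z) /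
      Nat.card (centralizer ({x} : Set G)) = z from fun z => by field_simp]
  refine vM_sum_le_one fun C _ => ?_
  simp only [F]
  split_ifs
  · exact h _
  · simp

theorem PI.ind [Fintype G] {T : Subgroup G} {A B' : Set (IrrCharacter T)} (h : PI p M B' c)
    (hA : IsFR T A) (hB' : B' ⊆ A) : PI p M (indSet T B') c := by
  classical
  obtain ⟨n, a, b, ha, hb, hB, hc, h⟩ := h
  have haA : ∀ i, a i ∈ A := fun i => hB' (hB ▸ ⟨i, rfl⟩)
  refine ⟨n, fun i => ⟨_, hA.isIrrCharacter_indFun (haA i)⟩, b,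
    fun i j hij => ha (hA.eq_of_indFun_eq (haA i) (haA j) (congrArg Subtype.val hij)), hb, ?_, hc,
    fun x y => ?_⟩
  · ext χ
    constructor
    · rintro ⟨i, rfl⟩
      exact ⟨a i, hB ▸ ⟨i, rfl⟩, rfl⟩
    · rintro ⟨ψ, hψ, e⟩
      obtain ⟨i, rfl⟩ := hB.symm ▸ hψ
      exact ⟨i, Subtype.ext e.symm⟩
  have h1 : ∀ z : ℂ, (∑ i, indFun T (a i : T → ℂ) x * (b i : H → ℂ) y) / z =
      indFun T (fun t => (∑ i, (a i : T → ℂ) t * (b i : H → ℂ) y) / z) x := fun z => by
    simp only [indFun_eq_sum_class, Finset.sum_div, Finset.mul_sum, Finset.sum_mul]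
    rw [Finset.sum_comm]
    exact Finset.sum_congr rfl fun _ _ => Finset.sum_congr rfl fun _ _ => by ring
  have h2 : ∀ z : ℂ, IsClassFunction T fun t => (∑ i, (a i : T → ℂ) t * (b i : H → ℂ) y) / z :=
    fun z g u => by simp only [(a _).2.isClassFunction g u]
  have h3 := h1 1
  have h4 := h2 1
  simp only [div_one] at h3 h4
  refine ⟨?_, ?_, ?_⟩
  · rw [h3]
    exact vM_indFun_div_le_one T h4 (fun t => (h t y).1) x
  · rw [h1]
    exact vM_indFun_le_one T (h2 _) (fun t => (h t y).2.1) x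
  · rw [or_iff_not_imp_left, h3, indFun_eq_sum_class]
    intro h5
    rw [Finset.sum_eq_zero, mul_zero]
    intro t ht
    obtain ⟨u, hu⟩ := isConj_iff.1 (show IsConj x t by simpa only [Finset.mem_filter,
      Finset.mem_univ, true_and] using ht)
    refine (h t y).2.2.resolve_left ?_
    rwa [← orderOf_coe, ← hu, show u * x * u⁻¹ = MulAut.conj u x from rfl, MulEquiv.orderOf_eq]

theorem PI.blockRank_le [Finite G] [Finite H] (h : PI p M B c) : blockRank p B ≤ blockRank p c := by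
  classical
  have := Fintype.ofFinite G
  have := Fintype.ofFinite H
  obtain ⟨n, a, b, ha, hb, rfl, rfl, h⟩ := h
  let Ar : Matrix (Fin n) G ℂ := Matrix.of fun i => pRegularPart p (a i : G → ℂ)
  let Br : Matrix (Fin n) H ℂ := Matrix.of fun i => pRegularPart p (b i : H → ℂ)
  let Bf : Matrix (Fin n) H ℂ := Matrix.of fun i => (b i : H → ℂ)
  have h1 : blockRank p (Set.range a) = Ar.rank := by
    rw [Matrix.rank_eq_finrank_span_row, blockRank, ← Set.range_comp]; rfl
  have h2 : blockRank p (Set.range b) = Br.rank := by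
    rw [Matrix.rank_eq_finrank_span_row, blockRank, ← Set.range_comp]; rfl
  have h3 : Bf.rank = Fintype.card (Fin n) := (linearIndependent_irr.comp b hb).rank_matrix
  have h4 : Ar.transpose * (Bf - Br) = 0 := by
    ext x y
    simp only [Matrix.mul_apply, Matrix.transpose_apply, Matrix.sub_apply, Ar, Br, Bf, pRegularPart,
      Matrix.zero_apply, Matrix.of_apply]
    by_cases hx : IsPRegular p x
    · by_cases hy : IsPRegular p y
      · simp [hy]
      · simpa [hx, hy] using (h x y).2.2.resolve_left fun h5 => hx (h5.2 (not_not.1 hy))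
    · simp [hx]
  have h5 := Matrix.rank_add_rank_le_card_of_mul_eq_zero h4
  have h6 : Bf.rank ≤ Br.rank + (Bf - Br).rank := by
    have h7 : LinearMap.range Bf.mulVecLin ≤
        LinearMap.range Br.mulVecLin ⊔ LinearMap.range (Bf - Br).mulVecLin := by
      rintro _ ⟨v, rfl⟩
      exact Submodule.mem_sup.2 ⟨_, ⟨v, rfl⟩, _, ⟨v, rfl⟩, by simp [Matrix.sub_mulVec]⟩
    exact (Submodule.finrank_mono h7).trans (Submodule.finrank_add_le_finrank_add_finrank _ _)
  rw [Matrix.rank_transpose] at h5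
  omega

theorem PI.out [Finite G] [Finite H] (hM : IsPModular p M) (h : PI p M B c) :
    Nat.card c = Nat.card B ∧ blockRank p c = blockRank p B ∧
      ∃ (I : IrrCharacter H → IrrCharacter G) (ε : IrrCharacter H → ℤ),
        IsPerfectIsometry p M c B I ε := by
  classical
  refine ⟨?_, le_antisymm h.symm.blockRank_le h.blockRank_le, ?_⟩
  · obtain ⟨n, a, b, ha, hb, rfl, rfl, -⟩ := h
    rw [Nat.card_range_of_injective ha, Nat.card_range_of_injective hb]
  obtain ⟨n, a, b, ha, hb, rfl, rfl, h⟩ := h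
  let I : IrrCharacter H → IrrCharacter G := Function.extend b a fun _ => ⟨_, isIrrCharacter_one⟩
  have hI : ∀ i, I (b i) = a i := hb.extend_apply _ _
  refine ⟨I, fun _ => 1, ⟨?_, ?_, ?_⟩, fun _ _ => Or.inl rfl, fun x y => ?_⟩
  · rintro _ ⟨i, rfl⟩; exact ⟨i, (hI i).symm⟩
  · rintro _ ⟨i, rfl⟩ _ ⟨j, rfl⟩ hij
    rw [hI, hI] at hij
    rw [ha hij]
  · rintro _ ⟨i, rfl⟩; exact ⟨b i, ⟨i, rfl⟩, hI i⟩
  have h1 : signedBijectionKernel (Set.range b) I (fun _ => 1) x y =
      ∑ i, (a i : G → ℂ) x * (b i : H → ℂ) y := by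
    rw [signedBijectionKernel, finsum_mem_range hb, finsum_eq_sum_of_fintype]
    simp [hI]
  have h2 : ∀ m : ℕ, IsAlgebraic ℤ ((∑ i, (a i : G → ℂ) x * (b i : H → ℂ) y) / m) := fun m =>
    (IsIntegral.sum _ fun i _ => (IsCharacter_isIntegral (a i).2.isCharacter x).mul
      (IsCharacter_isIntegral (b i).2.isCharacter y)).isAlgebraic.mul (isAlgebraic_nat m).inv
  rw [h1]
  exact ⟨(memLocalRing_iff hM (h2 _)).2 (h x y).1, (memLocalRing_iff hM (h2 _)).2 (h x y).2.1,
    (h x y).2.2.imp_left not_congr⟩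

section Triple

variable [hp : Fact p.Prime] {N A Q : Type*} [Group N] [Group A] [Group Q] {i : N →* G} {θ : N → ℂ}
  {ι : A →* Q} {lam : A →* ℂˣ} (T : CTriple i θ ι lam)

theorem dvd_orderOf_map_iff {Γ : Type*} [Group Γ] [Finite Γ] (f : Γ →* G)
    (hf : ¬ p ∣ Nat.card f.ker) (γ : Γ) : p ∣ orderOf (f γ) ↔ p ∣ orderOf γ := by
  rw [← dvd_orderOf_mk_iff_of_not_dvd f.ker hf, ← orderOf_injective _ (QuotientGroup.kerLift_injective f)]
  rfl

omit hp in
theorem card_ker_π : Nat.card T.π.ker = Nat.card A := by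
  rw [← T.range_b]; exact (Nat.card_congr (MonoidHom.ofInjective T.b_inj).toEquiv).symm

omit hp in
theorem card_ker_q : Nat.card T.q.ker = Nat.card N := by
  rw [← T.range_j]; exact (Nat.card_congr (MonoidHom.ofInjective T.j_inj).toEquiv).symm

theorem dvd_orderOf_iff (hN : ¬ p ∣ Nat.card N) (hA : ¬ p ∣ Nat.card A) (γ : T.Γ) :
    p ∣ orderOf (T.π γ) ↔ p ∣ orderOf (T.q γ) := by
  rw [dvd_orderOf_map_iff _ (by rwa [card_ker_π]), dvd_orderOf_map_iff _ (by rwa [card_ker_q])]

theorem factorization_centralizer_le (hN : ¬ p ∣ Nat.card N) (hA : ¬ p ∣ Nat.card A) (γ : T.Γ) :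
    (Nat.card (centralizer ({T.π γ} : Set G))).factorization p ≤
      (Nat.card (centralizer ({T.q γ} : Set Q))).factorization p := by
  have := T.finite_K
  have := T.finite_A
  have := T.finite_G
  let U := (centralizer ({T.π γ} : Set G)).comap T.π
  obtain ⟨S⟩ : Nonempty (Sylow p U) := inferInstance
  have h1 : Nat.card (centralizer ({T.π γ} : Set G)) ∣ Nat.card U := by
    conv_lhs => rw [← map_comap_eq_self_of_surjective T.π_surj (centralizer ({T.π γ} : Set G))]
    exact card_map_dvd _ _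
  have hb : ∀ z, T.π z = 1 → ∃ a, z = T.b a := fun z hz => by
    obtain ⟨a, ha⟩ := T.exists_b_of_π_eq (hz.trans (map_one _).symm)
    exact ⟨a, by rw [ha, mul_one]⟩
  let f : S →* centralizer ({T.q γ} : Set Q) :=
    (T.q.comp (U.subtype.comp (S : Subgroup U).subtype)).codRestrict _ fun x => by
      obtain ⟨m, hm⟩ := S.isPGroup' x
      rw [mem_centralizer_singleton_iff]
      refine (map_mul _ _ _).symm.trans ((congrArg T.q ?_).trans (map_mul _ _ _))
      refine comm_of_map_comm (π := T.π) (n := Nat.card A) (m := m) (fun z hz y => ?_)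
        (fun z hz => ?_) ((Nat.Prime.coprime_iff_not_dvd hp.out).2 hA)
        (congrArg (fun x : S => ((x : U) : T.Γ)) hm) (mem_centralizer_singleton_iff.1 x.1.2)
      · obtain ⟨a, rfl⟩ := hb z hz
        exact T.b_comm a y
      · obtain ⟨a, rfl⟩ := hb z hz
        rw [← map_pow, pow_card_eq_one', map_one]
  have hf : Function.Injective f := (injective_iff_map_eq_one f).2 fun x hx => by
    obtain ⟨m, hm⟩ := (IsPGroup.iff_orderOf.1 S.isPGroup') x
    have h2 : ¬ p ∣ orderOf ((x : U) : T.Γ) := by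
      rw [← dvd_orderOf_map_iff T.q (by rwa [card_ker_q]),
        show T.q ((x : U) : T.Γ) = 1 from congrArg Subtype.val hx, orderOf_one]
      exact hp.out.not_dvd_one
    rw [orderOf_coe, orderOf_coe, hm] at h2
    cases m with
    | zero => exact orderOf_eq_one_iff.1 hm
    | succ m => exact absurd (dvd_pow_self p m.succ_ne_zero) h2
  have h2 := card_dvd_of_injective f hf
  rw [S.card_eq_multiplicity] at h2
  exact ((Nat.factorization_le_iff_dvd Nat.card_pos.ne' Nat.card_pos.ne').2 h1 p).trans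
    ((hp.out.pow_dvd_iff_le_factorization Nat.card_pos.ne').1 h2)

end Triple

/-- Two triples over `p'`-groups that are isomorphic with the same central triple. -/
theorem pi_of_triples [hp : Fact p.Prime] (hM : IsPModular p M) [Finite G] [Finite H] {Q : Type*}
    [Group Q] {A : Subgroup Q} {lam : A →* ℂˣ} {K : Subgroup G} {L : Subgroup H}
    {θ : IrrCharacter K} {η : IrrCharacter L} (T : CTriple K.subtype (θ : K → ℂ) A.subtype lam)
    (T' : CTriple L.subtype (η : L → ℂ) A.subtype lam) (hK : ¬ p ∣ Nat.card K)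
    (hL : ¬ p ∣ Nat.card L) (hA : ¬ p ∣ Nat.card A) :
    PI p M (overSet K {θ}) (overSet L {η}) := by
  classical
  have := T.finite_K
  have := Fintype.ofFinite K
  have := Fintype.ofFinite L
  have := Fintype.ofFinite A
  let S := {β : IrrCharacter Q // LiesOverLin A.subtype lam (β : Q → ℂ)}
  let e := (Fintype.equivFin S).symm
  have hAc : A ≤ center Q := by simpa using T.range_ι_le_center
  have key : ∀ u v : Q, (Nat.card A : ℂ) * ∑ β : S, (β.1 : Q → ℂ) u * (β.1 : Q → ℂ) v =
      ∑ z : A, conj (lam z : ℂ) * ∑ β : IrrCharacter Q,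
        (β : Q → ℂ) (z * u) * conj ((β : Q → ℂ) v⁻¹) := fun u v => by
    simp only [Finset.mul_sum, ← mul_assoc]
    rw [Finset.sum_comm]
    simp only [← Finset.sum_mul, sum_conj_mul_apply_mul hAc lam (Subtype.prop _), ite_mul, zero_mul]
    rw [← Finset.sum_filter, Finset.sum_subtype (p := fun β : IrrCharacter Q =>
      LiesOverLin A.subtype lam (β : Q → ℂ)) _ (by simp)]
    exact Finset.sum_congr rfl fun β _ => by rw [← β.1.2.isCharacter.apply_inv, inv_inv]
  have hA1 := (vM_natCast_eq_one_iff hM _).2 hA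
  have hA0 : (Nat.card A : ℂ) ≠ 0 := Nat.cast_ne_zero.2 Nat.card_pos.ne'
  have key1 : ∀ u v : Q, vM M (∑ β : S, (β.1 : Q → ℂ) u * (β.1 : Q → ℂ) v) ≤
      vM M (Nat.card (centralizer ({u} : Set Q)) : ℂ) := fun u v => by
    rw [← one_mul (vM M _), ← hA1, ← map_mul, key]
    refine (vM M).map_sum_le fun z _ => ?_
    by_cases h : IsConj (z * u) v⁻¹
    · have h1 : centralizer ({z * u} : Set Q) = centralizer ({u} : Set Q) := by
        ext x
        rw [mem_centralizer_singleton_iff, mem_centralizer_singleton_iff, ← mul_assoc,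
          mem_center_iff.1 (hAc z.2), mul_assoc, mul_assoc, mul_right_inj]
      rw [sum_irr_mul_conj_of_isConj h, h1, map_mul, vM_eq_one_of_pow_eq_one (n := Nat.card A)
        Nat.card_pos.ne' (by
          rw [← map_pow, ← Units.val_pow_eq_pow_val, ← map_pow, pow_card_eq_one']; simp), one_mul]
    · rw [sum_irr_mul_conj_of_not_isConj h]; simp
  have key2 : ∀ u v : Q, ¬ (p ∣ orderOf u ↔ p ∣ orderOf v) →
      ∑ β : S, (β.1 : Q → ℂ) u * (β.1 : Q → ℂ) v = 0 := fun u v h => by
    refine (mul_eq_zero.1 ((key u v).trans (Finset.sum_eq_zero fun z _ => ?_))).resolve_left hA0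
    rw [sum_irr_mul_conj_of_not_isConj, mul_zero]
    intro h1
    have : A.Normal := by simpa using T.rel_range.normal_iff.1 T.normal_range_i
    obtain ⟨w, hw⟩ := isConj_iff.1 h1
    refine h ?_
    rw [← orderOf_inv v, ← hw, show w * (z * u) * w⁻¹ = MulAut.conj w (z * u) from rfl,
      MulEquiv.orderOf_eq, ← dvd_orderOf_mk_iff_of_not_dvd A hA,
      ← dvd_orderOf_mk_iff_of_not_dvd A hA, QuotientGroup.mk_mul, (QuotientGroup.eq_one_iff _).2 z.2,
      one_mul]
  refine ⟨_, fun i => (T.irrEquiv.symm (e i)).1, fun i => (T'.irrEquiv.symm (e i)).1,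
    Subtype.val_injective.comp (T.irrEquiv.symm.injective.comp e.injective),
    Subtype.val_injective.comp (T'.irrEquiv.symm.injective.comp e.injective), ?_, ?_,
    fun x y => ?_⟩
  · ext χ
    rw [mem_overSet_singleton, over_iff]
    exact ⟨by rintro ⟨i, rfl⟩; exact (T.irrEquiv.symm (e i)).2,
      fun h => ⟨e.symm (T.irrEquiv ⟨χ, h⟩), by
        beta_reduce; rw [e.apply_symm_apply, Equiv.symm_apply_apply]⟩⟩
  · ext χ
    rw [mem_overSet_singleton, over_iff]
    exact ⟨by rintro ⟨i, rfl⟩; exact (T'.irrEquiv.symm (e i)).2,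
      fun h => ⟨e.symm (T'.irrEquiv ⟨χ, h⟩), by
        beta_reduce; rw [e.apply_symm_apply, Equiv.symm_apply_apply]⟩⟩
  obtain ⟨γ, rfl⟩ := T.π_surj x
  obtain ⟨δ, rfl⟩ := T'.π_surj y
  have h1 : ∑ i, ((T.irrEquiv.symm (e i)).1 : G → ℂ) (T.π γ) *
      ((T'.irrEquiv.symm (e i)).1 : H → ℂ) (T'.π δ) =
      T.Θ γ * T'.Θ δ * ∑ β : S, (β.1 : Q → ℂ) (T.q γ) * (β.1 : Q → ℂ) (T'.q δ) := by
    rw [← e.sum_comp, Finset.mul_sum]
    refine Finset.sum_congr rfl fun i _ => ?_
    rw [CTriple.corr_irrEquiv (T := T) _ γ, CTriple.corr_irrEquiv (T := T') _ δ,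
      Equiv.apply_symm_apply, Equiv.apply_symm_apply]
    ring
  have h2 : vM M (T.Θ γ * T'.Θ δ) ≤ 1 := vM_le_one_of_isIntegral
    ((IsCharacter_isIntegral T.isChar γ).mul (IsCharacter_isIntegral T'.isChar δ))
  have h3 : ∀ (z : ℂ) (m n : ℕ), m ≠ 0 → n ≠ 0 → vM M z ≤ vM M (m : ℂ) →
      n.factorization p ≤ m.factorization p → vM M (T.Θ γ * T'.Θ δ * z / n) ≤ 1 :=
    fun z m n hm hn hz hmn => by
      rw [mul_div_assoc]
      refine vM_mul_le_one h2 ?_
      rw [map_div₀, div_le_one₀ ((vM M).pos_iff.2 (Nat.cast_ne_zero.2 hn))]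
      exact hz.trans ((vM_natCast_le_iff hM hm hn).2 hmn)
  beta_reduce
  rw [h1]
  refine ⟨h3 _ _ _ Nat.card_pos.ne' Nat.card_pos.ne' (key1 _ _)
    (factorization_centralizer_le T hK hA γ), h3 _ _ _ Nat.card_pos.ne' Nat.card_pos.ne' ?_
    (factorization_centralizer_le T' hL hA δ), ?_⟩
  · simpa only [mul_comm] using key1 (T'.q δ) (T.q γ)
  · rw [dvd_orderOf_iff T hK hA, dvd_orderOf_iff T' hL hA, or_iff_not_imp_left]
    exact fun h => by rw [key2 _ _ h, mul_zero]

end Cfsg.Lib.Dade
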