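import Cfsg.Agent.Dade.Triple
import Cfsg.Agent.Dade.Perf
import Cfsg.Agent.Block.FirstMain
import Cfsg.Agent.Block.DefectNum

/-!
# Blocks of `p`-solvable groups with abelian defect groups
-/

set_option autoImplicit false

open scoped MonoidAlgebra
open Subgroup Cfsg.Lib.Char Cfsg.Lib.Solv Cfsg.Lib.Block Cfsg.Lib.Block.Pair

namespace Cfsg.Lib.Dade

universe u

variable {M : Ideal AlgInt} {p : ℕ} [hp : Fact p.Prime] {G : Type u} [Group G] [Finite G]

omit hp in
theorem emb_eB_trB {H : Type*} [Group H] [Finite H] (e : H ≃* G) (B : Set (IrrCharacter G)) :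
    emb (e : H →* G) (eB M (trB e B)) = eB M B := galg_ext fun g => by
  obtain ⟨h, rfl⟩ := e.surjective g
  exact (coeff_emb (ι := (e : H →* G)) e.injective _ h).trans (coeff_eB_trB e B h)

theorem pi_of_invariant (hM : IsPModular p M) (hG : IsPConstrained p G)
    {θ : IrrCharacter (pPrimeCore p G)} (hθ : ∀ g : G, cjI g θ = θ) {P : Subgroup G}
    (hP : IsDefectGroup p M (overSet (pPrimeCore p G) {θ}) P)
    (hab : ∀ x ∈ P, ∀ y ∈ P, x * y = y * x) {c : Set (IrrCharacter (normalizer (P : Set G)))}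
    (hc : IsInducedBlock M (normalizer (P : Set G)) c (overSet (pPrimeCore p G) {θ})) :
    PI p M (overSet (pPrimeCore p G) {θ}) c := by
  obtain ⟨S, rfl⟩ := isSylowIn_top_iff.1 (((fong_block hM hG hθ).2.1 P).1 hP)
  have h1 : (S : Subgroup G) ≤ pPrimePCore p G :=
    fun x hx => hG.centralizer_le S inf_le_left fun y hy => hab y hy x hx
  have h2 := pPrimeCore_sup_sylow_inf S
  rw [inf_eq_left.2 h1] at h2
  have h3 := normalizer_sup_pPrimeCore_eq_top S.isPGroup' h2
  have hK : ¬ p ∣ Nat.card (pPrimeCore p G) := Block.not_dvd_card_pPrimeCore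
  obtain ⟨Q, _, _, A, lam, T, -, -, -, hA, -⟩ := exists_pPrime_triple _ hK hθ
  obtain ⟨η, hη, ⟨T'⟩⟩ := exists_triple_normalizer hM hK T hA S.isPGroup' hab fun g => by
    obtain ⟨k, hk, n, hn, rfl⟩ := mem_sup_of_normal_left.1 (show g ∈ pPrimeCore p G ⊔
      normalizer ((S : Subgroup G) : Set G) by rw [sup_comm, h3]; trivial)
    exact ⟨k, hk, by rwa [inv_mul_cancel_left]⟩
  have hC : ¬ p ∣ Nat.card ((pPrimeCore p G).subgroupOf (normalizer ((S : Subgroup G) : Set G))) :=
    fun h => hK (h.trans (card_comap_dvd_of_injective _ _ (subtype_injective _)))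
  have h4 := (defect_of_isInducedBlock_normalizer hM
    (defect_subgroupOf_of_isInducedBlock_normalizer hM hP hc) hc).2
  rw [← hat_eq_eB_overSet (stabB_singleton_eq_top hθ), ← hη,
    hat_eq_eB_overSet (stabB_singleton_eq_top fun g =>
      Subtype.ext (funext fun n => T'.invariant (g := g) rfl))] at h4
  rw [← eq_of_eB_eq (isIntEl_fB_overSet hM (isIntEl_fB_of_not_dvd hM hC _)) (isIntEl_fB hM hc.1)
    (emb_injective (subtype_injective _) h4)]
  exact pi_of_triples hM T T' hK hC hA

/-- The Fong–Reynolds reduction is compatible with the Brauer correspondence. -/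
theorem pi_of_stab (hM : IsPModular p M) {K : Subgroup G} [K.Normal] (hK : ¬ p ∣ Nat.card K)
    {θ : IrrCharacter K} {T : Subgroup G} (hT : T = stabB {θ}) (hKT : K ≤ T)
    {B' : Set (IrrCharacter T)} (hcov : Covers (K.subgroupOf T) B' (subB hKT {θ}))
    {B : Set (IrrCharacter G)} (hind : IsInducedBlock M T B' B) {D : Subgroup T}
    (hD : IsDefectGroup p M B' D) (hP : IsDefectGroup p M B (D.map T.subtype))
    (ih : ∀ c', IsInducedBlock M (normalizer (D : Set T)) c' B' → PI p M B' c')
    {c : Set (IrrCharacter (normalizer (D.map T.subtype : Set G)))}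
    (hc : IsInducedBlock M (normalizer (D.map T.subtype : Set G)) c B) : PI p M B c := by
  classical
  have := charP_kM hM
  have := Fintype.ofFinite G
  have hB' := hind.1
  have hb := isPBlock_singleton_of_not_dvd hM hK θ
  have hFR := isFR_stabB hM hb hKT hT
  have hA := hcov.subset_overSet hM hB' (isPBlock_trB_of _ hb)
  obtain ⟨c', hc', -, hbr⟩ := exists_brauerCorrespondent hM hB' hD
  have h1 : PI p M B c' := hFR.eq_indSet hM hA hind ▸ (ih c' hc').ind hFR hA
  let P := D.map T.subtype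
  let N := normalizer (P : Set G)
  let N' := normalizer (D : Set T)
  let L := T.subgroupOf N
  let C := K.subgroupOf N
  have := Fintype.ofFinite N
  have hPp : IsPGroup p P := (defect_isPGroup hD).map _
  have hTi := T.subtype_injective
  have hNi := N.subtype_injective
  let e : L ≃* N' :=
    { toFun := fun x => ⟨⟨x.1, x.2⟩, (mem_normalizer_map_iff hTi).1 x.1.2⟩
      invFun := fun x => ⟨⟨x.1, (mem_normalizer_map_iff hTi).2 x.2⟩, x.1.2⟩
      left_inv := fun x => rfl
      right_inv := fun x => rfl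
      map_mul' := fun x y => rfl }
  let e₂ : ↥(T ⊓ N) ≃* L :=
    { toFun := fun x => ⟨⟨x.1, x.2.2⟩, x.2.1⟩
      invFun := fun x => ⟨x.1, x.2, x.1.2⟩
      left_inv := fun x => rfl
      right_inv := fun x => rfl
      map_mul' := fun x y => rfl }
  have he := isPrim_hat hM hb
  have hst : stab (hat M K {θ}) = T := by rw [hT, stabB_eq_stab hM hb]
  have hPT : P ≤ T := map_subtype_le D
  have hPK : P ≤ normalizer (K : Set G) := by rw [normalizer_eq_top]; exact le_top
  have hC : C.map N.subtype = K ⊓ centralizer (P : Set G) := by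
    rw [subgroupOf_map_subtype]
    exact le_antisymm (le_inf inf_le_left (inf_normalizer_le_centralizer_of_inf_eq_bot
      (inf_eq_bot_of_not_dvd_of_isPGroup hK hPp) hPK))
      (inf_le_inf_left K (centralizer_le_normalizer _))
  have hCp : ¬ p ∣ Nat.card C := fun h => hK (h.trans (card_comap_dvd_of_injective K _ hNi))
  have hf := he.isPrim_br_coprime hM hK hPp hPK (hst ▸ hPT)
  rw [← hC] at hf
  obtain ⟨f', hf'⟩ := exists_emb_eq_of_map hNi hf.suppOn
  obtain ⟨η, rfl⟩ := ((isPrim_emb_iff hNi).1 (hf' ▸ hf)).exists_eq_hat_singleton hM hCp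
  have hb' := isPBlock_singleton_of_not_dvd hM hCp η
  have hL : L = stabB {η} := by
    ext x
    rw [mem_stabB_iff_mem_stab hM hb', ← mem_stab_emb hNi, hf', mem_subgroupOf, ← hst]
    refine ⟨fun h => stab_inf_normalizer_le_stab_br _ _ ⟨h, x.2⟩, fun h => ?_⟩
    have h2 : br P (cj (x : G) (hat M K {θ})) = br P (hat M K {θ}) := by
      have := cj_br (x : G) P (hat M K {θ})
      rw [map_conj_eq_self_iff.2 x.2] at this
      exact this.symm.trans h
    have hx : (x : G) ∈ normalizer (K : Set G) := by rw [normalizer_eq_top]; trivial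
    refine ((he.cj_of_mem hx hx).eq_of_mul_ne_zero le_rfl he fun h0 => hf.ne_zero ?_)
    rw [← hf.idem.eq]
    conv_lhs => enter [1]; rw [← h2]
    rw [← br_mul hPp _ (hst ▸ hPT), h0, map_zero]
    rw [stab_cj, hst, ← map_conj_eq_self_iff.2 x.2]
    exact map_mono hPT
  have hCL : C ≤ L := fun x hx => hKT hx
  have hFR' := isFR_stabB hM hb' hCL hL
  have hc'' : IsPBlock M (trB e c') := isPBlock_trB_of e hc'.1
  have h2 : emb N.subtype (hat M L (trB e c')) = br P (hat M T B') := by
    rw [hat, hat, br_emb hTi, hbr, hat, ← emb_eB_trB e c', emb_emb, emb_emb, emb_emb]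
    rfl
  have hB'' := isPrim_hat hM hB'
  have h3 : hat M K {θ} * hat M T B' = hat M T B' :=
    he.mul_eq_of_stable_cover hKT hst.ge hB''
      ((covers_subB_iff_hat_mul_ne_zero hM hKT hB' hb).1 hcov)
  have hcov' : Covers (C.subgroupOf L) (trB e c') (subB hCL {η}) := by
    rw [covers_subB_iff_hat_mul_ne_zero hM hCL hc'' hb', ← emb_ne_zero_iff hNi, map_mul, h2, hf',
      ← br_mul hPp (hPT.trans hB''.le_stab) (hst ▸ hPT),
      (commute_of_suppOn hB''.le_stab (he.suppOn.mono hKT)).eq, h3, ← h2, emb_ne_zero_iff hNi]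
    exact (isPrim_hat hM hc'').ne_zero
  have hA' := hcov'.subset_overSet hM hc'' (isPBlock_trB_of _ hb')
  have h4 := hFR'.isInducedBlock_indSet hM hc'' hA'
  have h5 : IsInducedBlock M N (indSet L (trB e c')) B :=
    (isInducedBlock_trans_map hM e₂ (fun _ => rfl) h4).1
      ((isInducedBlock_trans_map hM (e₂.trans e) (fun _ => rfl) hc').2 hind)
  rw [eq_of_isInducedBlock_normalizer hM hP hc h5]
  exact ((h1.symm.trB e).ind hFR' hA').symm

theorem pi_of_isPSolvable (hM : IsPModular p M) (G : Type u) [Group G] [Finite G]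
    (hG : IsPSolvable p G) {B : Set (IrrCharacter G)} (hB : IsPBlock M B) {P : Subgroup G}
    (hP : IsDefectGroup p M B P) (hab : ∀ x ∈ P, ∀ y ∈ P, x * y = y * x)
    {c : Set (IrrCharacter (normalizer (P : Set G)))}
    (hc : IsInducedBlock M (normalizer (P : Set G)) c B) : PI p M B c := by
  induction hn : Nat.card G using Nat.strong_induction_on generalizing G with
  | _ n ih =>
  have hK : ¬ p ∣ Nat.card (pPrimeCore p G) := Block.not_dvd_card_pPrimeCore
  have hG' := isPConstrained_of_isPSolvable hG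
  obtain ⟨χ, hχ⟩ := block_nonempty hM hB
  obtain ⟨θ, hθ⟩ := exists_over_under (pPrimeCore p G) χ
  have hb := isPBlock_singleton_of_not_dvd hM hK θ
  have hcov : Covers _ B {θ} := ⟨χ, hχ, θ, rfl, hθ⟩
  by_cases hT : stabB ({θ} : Set (IrrCharacter (pPrimeCore p G))) = ⊤
  · have h1 : ∀ g : G, cjI g θ = θ := fun g =>
      cjI_mem_of_mem_stabB (b := {θ}) (hT ▸ mem_top g) rfl
    obtain rfl := block_eq_of_mem hM hB (fong_block hM hG' h1).1 hχ ⟨θ, rfl, hθ⟩
    exact pi_of_invariant hM hG' h1 hP hab hc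
  have hNT := le_stabB ({θ} : Set (IrrCharacter (pPrimeCore p G)))
  have hFR := isFR_stabB hM hb hNT rfl
  obtain ⟨B', hB', h1, h2⟩ := hcov.exists_between hM hNT
  have hA := h2.subset_overSet hM hB' (isPBlock_trB_of _ hb)
  have hind := hFR.isInducedBlock_of_covers hM hB' hA hB h1
  obtain ⟨D, hD⟩ := exists_isDefectGroup hM hB'
  have hD' := defect_map_of_blockDefect_le hM hind (hFR.blockDefect_eq hM hA hind).le hD
  obtain ⟨x, hx⟩ := defect_exists_conj hM hB hD' hP
  have h3 : (normalizer (P : Set G)).map (MulAut.conj x).toMonoidHom =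
      normalizer (D.map (stabB {θ}).subtype : Set G) := by
    rw [← hx]; exact map_equiv_normalizer_eq P (MulAut.conj x)
  have h4 := pi_of_stab hM hK rfl hNT h2 hind hD hD' (fun c' hc' => ih _ (hn ▸ lt_of_le_of_ne
    (card_le_card_group _) fun h => hT (eq_top_of_card_eq _ h)) _ (hG.subgroup _) hB' hD
    (fun y hy z hz => by
      obtain ⟨y', hy', h5⟩ := hx.ge ⟨y, hy, rfl⟩
      obtain ⟨z', hz', h6⟩ := hx.ge ⟨z, hz, rfl⟩
      refine (stabB {θ}).subtype_injective ?_
      rw [map_mul, map_mul, ← h5, ← h6, ← map_mul, hab y' hy' z' hz', map_mul]) hc' rfl)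
    ((isInducedBlock_trB_conj x⁻¹ (conjIso x h3) fun y => by rw [inv_inv]; rfl).2 hc)
  have h5 := (h4.symm.trB (conjIso x h3).symm).symm
  rwa [trB_symm_trB] at h5

end Cfsg.Lib.Dade
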